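import Cfsg.Agent.H195.HT.ConstB0

/-!
# The permutation character of a dual polar scheme is the sum of its `m + 1` characters (helper195, for S4933)

`sum_chi` : `∑ j ∈ range (m + 1), χ_j g` is the number of fixed points of `g`;
`chi_ne` : the `χ_j` are pairwise different; `const` : there is no other constituent; `exists_family` : all at once.
-/

set_option autoImplicit false
set_option linter.unusedSectionVars false

open scoped BigOperators
open Cfsg

namespace Cfsg.Agent.H195.HT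

open Cfsg.Agent.H722.DPol Finset Cfsg.Agent.H816.IMEig Cfsg.Agent.Characters.Core
open Cfsg.Agent.H697.HT.DPB0

universe u v

variable {G : Type u} [Group G] {X : Type v} [MulAction G X] {d : X → X → ℕ} {m Q s : ℕ}

/-- column orthogonality -/
theorem sum_ff_om (hQ : 2 ≤ Q) (hs : 1 ≤ s) (i : ℕ) :
    ∑ j ∈ range (m + 1), ff (Q : ℚ) (s : ℚ) m j * om m Q s j i =
      if i = 0 then ∏ l ∈ range m, (1 + (s : ℚ) * (Q : ℚ) ^ l) else 0 := by
  have hQ' : (1 : ℚ) < Q := by exact_mod_cast hQ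
  have hs' : (0 : ℚ) < s := by exact_mod_cast hs
  have h1 : ∑ j' ∈ range (m + 1), ff (Q : ℚ) (s : ℚ) m j' * PP (Q : ℚ) (s : ℚ) m j' i =
      if i = 0 then ∏ l ∈ range m, (1 + (s : ℚ) * (Q : ℚ) ^ l) else 0 := by
    have h2 := congrArg (fun p => p.coeff i) (sum_ff hQ' hs' m)
    simp only [Polynomial.finsetSum_coeff, Polynomial.coeff_C_mul, Polynomial.coeff_C] at h2
    exact h2
  have h3 : ∑ j ∈ range (m + 1), ff (Q : ℚ) (s : ℚ) m j * om m Q s j i =
      (∑ j' ∈ range (m + 1), ff (Q : ℚ) (s : ℚ) m j' * PP (Q : ℚ) (s : ℚ) m j' i) / PP (Q : ℚ) (s : ℚ) m 0 i := by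
    rw [Finset.sum_div]
    refine sum_congr rfl fun j _ => ?_
    unfold om
    rw [mul_div_assoc]
  rw [h3, h1]
  split_ifs with h0
  · rw [h0, PP_zero, div_one]
  · rw [zero_div]

/-- **The permutation character.** -/
theorem sum_chi [Fintype X] [Nonempty X] (hQ : 2 ≤ Q) (hs : 1 ≤ s) (h : DP G X d m Q s) {χ : ℕ → G → ℂ}
    (hχ : ∀ j ≤ m, Vals d m Q s j (χ j)) (g : G) :
    ∑ j ∈ range (m + 1), χ j g = (Nat.card {x : X // g • x = x} : ℂ) := by
  classical
  have hX0 : (Nat.card X : ℂ) ≠ 0 := by exact_mod_cast (Nat.card_pos (α := X)).ne'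
  have hc : (Nat.card X : ℚ) = ∏ l ∈ range m, (1 + (s : ℚ) * (Q : ℚ) ^ l) := by
    rw [DP.card_eq hQ hs h]
    push_cast
    rfl
  have h1 : ∀ x : X, ∑ j ∈ range (m + 1), ((ff (Q : ℚ) (s : ℚ) m j : ℚ) : ℂ) *
      ((om m Q s j (d x (g • x)) : ℚ) : ℂ) = if g • x = x then (Nat.card X : ℂ) else 0 := by
    intro x
    have h2 := congrArg (fun r : ℚ => (r : ℂ)) (sum_ff_om (m := m) hQ hs (d x (g • x)))
    push_cast at h2
    rw [h2]
    by_cases hx : g • x = x
    · rw [if_pos ((h.diag _ _).2 hx.symm), if_pos hx, ← hc, Rat.cast_natCast]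
    · rw [if_neg (fun e => hx ((h.diag _ _).1 e).symm), if_neg hx, Rat.cast_zero]
  calc ∑ j ∈ range (m + 1), χ j g
      = ∑ j ∈ range (m + 1), ∑ x : X, (Nat.card X : ℂ)⁻¹ * (((ff (Q : ℚ) (s : ℚ) m j : ℚ) : ℂ) *
          ((om m Q s j (d x (g • x)) : ℚ) : ℂ)) := by
        refine sum_congr rfl fun j hj => ?_
        rw [hχ j (by rw [mem_range] at hj; omega) g, mul_sum]
        refine sum_congr rfl fun x _ => ?_
        rw [div_eq_mul_inv]
        ring
    _ = ∑ x : X, (if g • x = x then 1 else 0) := by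
        rw [sum_comm]
        refine sum_congr rfl fun x _ => ?_
        rw [← mul_sum, h1 x, mul_ite, mul_zero, inv_mul_cancel₀ hX0]
    _ = (Nat.card {x : X // g • x = x} : ℂ) := by
        rw [Finset.sum_boole, Nat.card_eq_fintype_card, Fintype.card_subtype]

section fam

variable [Fintype G] [Fintype X] [Nonempty X] {χ : ℕ → IrrCharacter G}

theorem perm_eq (hQ : 2 ≤ Q) (hs : 1 ≤ s) (h : DP G X d m Q s) (hχ : ∀ j ≤ m, Chi G X d m Q s j (χ j)) :
    (fun g : G => (Nat.card {x : X // g • x = x} : ℂ)) = ∑ j ∈ range (m + 1), (χ j : G → ℂ) := by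
  funext g
  rw [Finset.sum_apply]
  exact (sum_chi hQ hs h (fun j hj => (hχ j hj).vals) g).symm

open scoped Classical in
theorem inner_perm (hQ : 2 ≤ Q) (hs : 1 ≤ s) (h : DP G X d m Q s) (hχ : ∀ j ≤ m, Chi G X d m Q s j (χ j))
    (ψ : IrrCharacter G) :
    classInner (fun g : G => (Nat.card {x : X // g • x = x} : ℂ)) (ψ : G → ℂ) =
      (((range (m + 1)).filter fun j => χ j = ψ).card : ℂ) := by
  rw [perm_eq hQ hs h hχ]
  rw [classInner_sum_left, Finset.card_filter]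
  push_cast
  refine sum_congr rfl fun j _ => ?_
  split_ifs with hj
  · rw [hj]
    exact classInner_irr_self ψ.2
  · exact classInner_irr_ne (χ j).2 ψ.2 fun e => hj (Subtype.ext e)

/-- **The characters are pairwise different.** -/
theorem chi_ne (hQ : 2 ≤ Q) (hs : 1 ≤ s) (h : DP G X d m Q s) (hχ : ∀ j ≤ m, Chi G X d m Q s j (χ j))
    {i j : ℕ} (hi : i ≤ m) (hj : j ≤ m) (hij : i ≠ j) : χ i ≠ χ j := by
  classical
  intro e
  have h1 := inner_perm hQ hs h hχ (χ j)
  rw [(hχ j hj).mult] at h1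
  have h2 : ((range (m + 1)).filter fun k => χ k = χ j).card = 1 := by exact_mod_cast h1.symm
  have h3 : ({i, j} : Finset ℕ) ⊆ (range (m + 1)).filter fun k => χ k = χ j := by
    intro k hk
    rw [Finset.mem_insert, Finset.mem_singleton] at hk
    rw [Finset.mem_filter, mem_range]
    rcases hk with rfl | rfl
    · exact ⟨by omega, e⟩
    · exact ⟨by omega, rfl⟩
  have h4 := Finset.card_le_card h3
  rw [Finset.card_pair hij, h2] at h4
  omega

/-- **There are no other constituents.** -/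
theorem const (hQ : 2 ≤ Q) (hs : 1 ≤ s) (h : DP G X d m Q s) (hχ : ∀ j ≤ m, Chi G X d m Q s j (χ j))
    {ψ : IrrCharacter G} (hψ : classInner (fun g : G => (Nat.card {x : X // g • x = x} : ℂ)) (ψ : G → ℂ) ≠ 0) :
    ∃ j ≤ m, χ j = ψ := by
  classical
  rw [inner_perm hQ hs h hχ ψ] at hψ
  have h1 : ((range (m + 1)).filter fun k => χ k = ψ).card ≠ 0 := by
    intro h0
    exact hψ (by rw [h0, Nat.cast_zero])
  obtain ⟨j, hj⟩ := Finset.card_ne_zero.1 h1
  rw [Finset.mem_filter, mem_range] at hj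
  exact ⟨j, by omega, hj.2⟩

/-- the inner products -/
theorem inner_chi (hQ : 2 ≤ Q) (hs : 1 ≤ s) (h : DP G X d m Q s) (hχ : ∀ j ≤ m, Chi G X d m Q s j (χ j))
    {i j : ℕ} (hi : i ≤ m) (hj : j ≤ m) : classInner (χ i : G → ℂ) (χ j : G → ℂ) = if i = j then 1 else 0 := by
  split_ifs with hij
  · rw [hij]
    exact classInner_irr_self (χ j).2
  · exact classInner_irr_ne (χ i).2 (χ j).2 fun e => chi_ne hQ hs h hχ hi hj hij (Subtype.ext e)

end fam

/-- **The family of the characters of a dual polar scheme.** -/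
theorem exists_family [Fintype G] [Fintype X] [Nonempty X] (hQ : 2 ≤ Q) (hs : 1 ≤ s) (hm : 1 ≤ m)
    (h : DP G X d m Q s) :
    ∃ χ : ℕ → IrrCharacter G, (∀ j ≤ m, Chi G X d m Q s j (χ j)) ∧
      (fun g : G => (Nat.card {x : X // g • x = x} : ℂ)) = ∑ j ∈ range (m + 1), (χ j : G → ℂ) ∧
      (∀ i ≤ m, ∀ j ≤ m, i ≠ j → χ i ≠ χ j) ∧
      ∀ ψ : IrrCharacter G, classInner (fun g : G => (Nat.card {x : X // g • x = x} : ℂ)) (ψ : G → ℂ) ≠ 0 →
        ∃ j ≤ m, χ j = ψ := by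
  obtain ⟨χ₀, hχ₀⟩ := exists_chi hQ hs hm h (Nat.zero_le m)
  have h1 : ∀ j : ℕ, ∃ χ : IrrCharacter G, j ≤ m → Chi G X d m Q s j χ := by
    intro j
    by_cases hj : j ≤ m
    · obtain ⟨χ, hχ⟩ := exists_chi hQ hs hm h hj
      exact ⟨χ, fun _ => hχ⟩
    · exact ⟨χ₀, fun h => absurd h hj⟩
  choose χ hχ using h1
  exact ⟨χ, hχ, perm_eq hQ hs h hχ, fun i hi j hj hij => chi_ne hQ hs h hχ hi hj hij,
    fun ψ hψ => const hQ hs h hχ hψ⟩

end Cfsg.Agent.H195.HT
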